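import Cfsg.Agent.H21.FrobeniusStructure
import Mathlib.GroupTheory.SpecificGroups.ZGroup
import Mathlib.GroupTheory.PresentedGroup

/-!
The presentation of a `Z`-group acting fixed-point-freely.
-/

namespace Cfsg.Agent.H21

open scoped IsMulCommutative

universe u

/-- The relations `x^n = 1, y^m = 1, x⁻¹ y x = y^r`. -/
abbrev metaRels (n m r : ℕ) : Set (FreeGroup (Fin 2)) :=
  {FreeGroup.of (0 : Fin 2) ^ n, FreeGroup.of (1 : Fin 2) ^ m,
    (FreeGroup.of (0 : Fin 2))⁻¹ * FreeGroup.of 1 * FreeGroup.of 0 * (FreeGroup.of (1 : Fin 2) ^ r)⁻¹}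

/-- The presented metacyclic group has at most `n m` elements in normal form. -/
theorem exists_normal_form {n m r : ℕ} (hn : 0 < n) (hm : 0 < m) (g : PresentedGroup (metaRels n m r)) :
    ∃ i : Fin n, ∃ j : Fin m, g = PresentedGroup.of 0 ^ (i : ℕ) * PresentedGroup.of 1 ^ (j : ℕ) := by
  set X : PresentedGroup (metaRels n m r) := PresentedGroup.of 0 with hX
  set Y : PresentedGroup (metaRels n m r) := PresentedGroup.of 1 with hY
  have hXn : X ^ n = 1 := by
    have := PresentedGroup.one_of_mem (rels := metaRels n m r) (x := FreeGroup.of 0 ^ n) (by simp)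
    rwa [map_pow] at this
  have hYm : Y ^ m = 1 := by
    have := PresentedGroup.one_of_mem (rels := metaRels n m r) (x := FreeGroup.of 1 ^ m) (by simp)
    rwa [map_pow] at this
  have hYX : Y * X = X * Y ^ r := by
    have := PresentedGroup.one_of_mem (rels := metaRels n m r)
      (x := (FreeGroup.of 0)⁻¹ * FreeGroup.of 1 * FreeGroup.of 0 * (FreeGroup.of 1 ^ r)⁻¹) (by simp)
    simp only [map_mul, map_inv, map_pow] at this
    rw [mul_inv_eq_one, mul_assoc, inv_mul_eq_iff_eq_mul] at this
    exact this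
  have hpowX : ∀ j : ℕ, Y ^ j * X = X * Y ^ (r * j) := by
    intro j
    induction j with
    | zero => simp
    | succ j ih => rw [pow_succ', mul_assoc, ih, ← mul_assoc, hYX, mul_assoc, ← pow_add]; congr 2; ring
  let P : PresentedGroup (metaRels n m r) → Prop := fun g => ∃ i j : ℕ, g = X ^ i * Y ^ j
  have stepX : ∀ g, P g → P (g * X) := by
    rintro g ⟨i, j, rfl⟩
    exact ⟨i + 1, r * j, by rw [mul_assoc, hpowX, ← mul_assoc, ← pow_succ]⟩
  have stepY : ∀ g, P g → P (g * Y) := by
    rintro g ⟨i, j, rfl⟩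
    exact ⟨i, j + 1, by rw [mul_assoc, ← pow_succ]⟩
  have stepXk : ∀ k g, P g → P (g * X ^ k) := by
    intro k
    induction k with
    | zero => intro g hg; rwa [pow_zero, mul_one]
    | succ k ih => intro g hg; rw [pow_succ, ← mul_assoc]; exact stepX _ (ih g hg)
  have stepYk : ∀ k g, P g → P (g * Y ^ k) := by
    intro k
    induction k with
    | zero => intro g hg; rwa [pow_zero, mul_one]
    | succ k ih => intro g hg; rw [pow_succ, ← mul_assoc]; exact stepY _ (ih g hg)
  have stepXi : ∀ g, P g → P (g * X⁻¹) := fun g hg => by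
    rw [inv_eq_of_mul_eq_one_right (show X * X ^ (n - 1) = 1 by rw [← pow_succ', Nat.sub_add_cancel hn, hXn])]
    exact stepXk _ g hg
  have stepYi : ∀ g, P g → P (g * Y⁻¹) := fun g hg => by
    rw [inv_eq_of_mul_eq_one_right (show Y * Y ^ (m - 1) = 1 by rw [← pow_succ', Nat.sub_add_cancel hm, hYm])]
    exact stepYk _ g hg
  have hg : g ∈ Subgroup.closure (Set.range (PresentedGroup.of (rels := metaRels n m r))) := by
    rw [PresentedGroup.closure_range_of]; trivial
  have hall : ∀ h, P h → P (h * g) ∧ P (h * g⁻¹) := by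
    induction hg using Subgroup.closure_induction with
    | mem x hx =>
      obtain ⟨e, rfl⟩ := hx
      intro h hh
      fin_cases e
      · exact ⟨stepX h hh, stepXi h hh⟩
      · exact ⟨stepY h hh, stepYi h hh⟩
    | one => intro h hh; simp [hh]
    | mul x y _ _ hx hy =>
      intro h hh
      refine ⟨?_, ?_⟩
      · rw [← mul_assoc]; exact (hy _ (hx h hh).1).1
      · rw [mul_inv_rev, ← mul_assoc]; exact (hx _ (hy h hh).2).2
    | inv x _ hx => intro h hh; rw [inv_inv]; exact (hx h hh).symm
  obtain ⟨i, j, hij⟩ := (hall 1 ⟨0, 0, by simp⟩).1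
  rw [one_mul] at hij
  exact ⟨⟨i % n, Nat.mod_lt _ hn⟩, ⟨j % m, Nat.mod_lt _ hm⟩,
    by rw [hij, ← pow_eq_pow_mod i hXn, ← pow_eq_pow_mod j hYm]⟩

/-- A `Z`-group acting fixed-point-freely has the standard presentation. -/
theorem zgroup_presentation {G : Type*} [Group G] [Finite G] [IsZGroup G] {K : Type u} [Group K]
    [Finite K] [Nontrivial K] (ψ : G →* MulAut K)
    (hfpf : ∀ e : G, e ≠ 1 → ∀ x : K, ψ e x = x → x = 1) :
    ∃ n m r : ℕ, 0 < n ∧ 0 < m ∧ Nat.Coprime (r - 1) m ∧ Nat.Coprime n m ∧ 1 ≤ r ∧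
      r ^ (n / ∏ p ∈ n.primeFactors, p) % m = 1 % m ∧
      Nonempty (G ≃* PresentedGroup (metaRels n m r)) := by
  set C := commutator G with hC
  obtain ⟨H, hH⟩ := Subgroup.exists_right_complement'_of_coprime (IsZGroup.coprime_commutator_index (G := G))
  have hHc : IsCyclic H := by
    have h1 : Abelianization G ≃* H := hH.symm.QuotientMulEquiv
    exact isCyclic_of_surjective _ h1.surjective
  have hCc : IsCyclic C := IsZGroup.isCyclic_commutator G
  obtain ⟨x, hx⟩ := (Subgroup.isCyclic_iff_exists_zpowers_eq_top H).mp hHc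
  obtain ⟨y, hy⟩ := (Subgroup.isCyclic_iff_exists_zpowers_eq_top C).mp hCc
  set n := orderOf x with hn
  set m := orderOf y with hm
  have hn0 : 0 < n := orderOf_pos x
  have hm0 : 0 < m := orderOf_pos y
  have hHn : Nat.card H = n := by rw [← hx, Nat.card_zpowers]
  have hCm : Nat.card C = m := by rw [← hy, Nat.card_zpowers]
  have hmn : Nat.Coprime n m := by
    rw [← hHn, ← hCm, Nat.coprime_comm, ← hH.symm.index_eq_card]
    exact IsZGroup.coprime_commutator_index G
  have hconj : x⁻¹ * y * x ∈ Subgroup.zpowers y := by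
    rw [hy]
    simpa using (inferInstance : C.Normal).conj_mem y (hy ▸ Subgroup.mem_zpowers y) x⁻¹
  obtain ⟨j, hj⟩ := mem_powers_iff_mem_zpowers.mpr hconj
  set r := j + m with hrdef
  have hr1 : 1 ≤ r := by omega
  have hr : x⁻¹ * y * x = y ^ r := by rw [hrdef, pow_add, pow_orderOf_eq_one, mul_one]; exact hj.symm
  have hpow : ∀ k : ℕ, (x ^ k)⁻¹ * y * x ^ k = y ^ (r ^ k) := by
    intro k
    induction k with
    | zero => simp
    | succ k ih =>
      have h1 : ∀ e : ℕ, x⁻¹ * y ^ e * x = y ^ (r * e) := fun e => by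
        have := conj_pow (a := x⁻¹) (b := y) (i := e)
        rw [inv_inv] at this
        rw [← this, hr, ← pow_mul]
      calc (x ^ (k + 1))⁻¹ * y * x ^ (k + 1) = x⁻¹ * ((x ^ k)⁻¹ * y * x ^ k) * x := by
            rw [pow_succ, mul_inv_rev]; simp only [mul_assoc]
        _ = y ^ (r ^ (k + 1)) := by rw [ih, h1, ← pow_succ']
  -- the congruence for each prime divisor of `n`
  have hprime : ∀ p ∈ n.primeFactors, r ^ (n / p) ≡ 1 [MOD m] := by
    intro p hp
    have hpp := Nat.prime_of_mem_primeFactors hp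
    have hpd := Nat.dvd_of_mem_primeFactors hp
    have := Fact.mk hpp
    have : Nontrivial G := ⟨⟨x, 1, fun e => by
      have : n = 1 := by rw [hn, e, orderOf_one]
      rw [this] at hpd
      exact hpp.not_dvd_one hpd⟩⟩
    have := isNilpotent_of_fpf_group ψ hfpf
    obtain ⟨hV, χ, hχ⟩ := center_fpf ψ hfpf
    have hw : orderOf (x ^ (n / p)) = p := by
      rw [orderOf_pow_of_dvd (Nat.div_pos (Nat.le_of_dvd hn0 hpd) hpp.pos).ne' (Nat.div_dvd_of_dvd hpd),
        ← hn, Nat.div_div_self hpd hn0.ne']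
    set w := x ^ (n / p) with hwdef
    set s := r ^ (n / p) with hsdef
    have hs : w⁻¹ * y * w = y ^ s := hpow (n / p)
    have hsp : s ^ p ≡ 1 [MOD m] := by
      rw [hm, ← pow_eq_pow_iff_modEq, pow_one, hsdef, ← pow_mul, Nat.div_mul_cancel hpd, ← hpow n, hn,
        pow_orderOf_eq_one, inv_one, one_mul, mul_one]
    have hq : ∀ q : ℕ, q.Prime → q ∣ m → s ≡ 1 [MOD q] := by
      intro q hqp hqd
      have := Fact.mk hqp
      have hu : orderOf (y ^ (m / q)) = q := by
        rw [orderOf_pow_of_dvd (Nat.div_pos (Nat.le_of_dvd hm0 hqd) hqp.pos).ne' (Nat.div_dvd_of_dvd hqd),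
          ← hm, Nat.div_div_self hqd hm0.ne']
      set u' := y ^ (m / q) with hudef
      have hwu : w⁻¹ * u' * w = u' ^ s := by
        have := conj_pow (a := w⁻¹) (b := y) (i := m / q)
        rw [inv_inv] at this
        rw [hudef, ← this, hs, ← pow_mul, ← pow_mul, mul_comm]
      have hc := commute_of_card_pq χ hχ (a := w⁻¹) (b := u') (p := p) (q := q)
        (by rw [orderOf_inv, hw]) hu (by rw [inv_inv, hwu]; exact pow_mem (Subgroup.mem_zpowers _) s)
      have : u' ^ s = u' ^ 1 := by
        rw [pow_one, ← hwu, hc.eq, inv_mul_cancel_right]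
      rwa [pow_eq_pow_iff_modEq, hu] at this
    have hs1 : 1 ≤ s := Nat.one_le_pow _ _ hr1
    rw [Nat.ModEq.comm, Nat.modEq_iff_dvd' hs1]
    have hgeom : (s - 1) * (∑ i ∈ Finset.range p, s ^ i) = s ^ p - 1 := by
      have h1 := geom_sum_mul_of_one_le hs1 p
      rw [mul_comm]; exact h1
    have hdvd : m ∣ (s - 1) * (∑ i ∈ Finset.range p, s ^ i) := by
      rw [hgeom, ← Nat.modEq_iff_dvd' (Nat.one_le_pow _ _ hs1)]
      exact hsp.symm
    refine (Nat.Coprime.dvd_of_dvd_mul_right ?_ hdvd)
    refine Nat.coprime_of_dvd fun q hqp hqm hqs => ?_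
    have hpq : ∑ i ∈ Finset.range p, s ^ i ≡ p [MOD q] := by
      have : ∀ k : ℕ, ∑ i ∈ Finset.range k, s ^ i ≡ k [MOD q] := by
        intro k
        induction k with
        | zero => exact Nat.ModEq.refl _
        | succ k ih =>
          rw [Finset.sum_range_succ]
          exact ih.add (by simpa using (hq q hqp hqm).pow k)
      exact this p
    have hp0 : q ∣ p := Nat.modEq_zero_iff_dvd.mp (hpq.symm.trans (Nat.modEq_zero_iff_dvd.mpr hqs))
    rw [Nat.prime_dvd_prime_iff_eq hqp hpp] at hp0
    subst hp0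
    exact hqp.not_dvd_one (hmn ▸ Nat.dvd_gcd hpd hqm)
  -- the exponent
  have hexp : r ^ (n / ∏ p ∈ n.primeFactors, p) % m = 1 % m := by
    rcases eq_or_ne n 1 with h1 | h1
    · have : C = ⊤ := by
        rw [h1, Subgroup.card_eq_one] at hHn
        have := hH.sup_eq_top
        rwa [hHn, sup_bot_eq] at this
      have hm1 : m = 1 := by
        rw [← hCm]
        by_contra hne
        have : Nontrivial G := by
          rw [← Finite.one_lt_card_iff_nontrivial]
          have := Nat.card_pos (α := C)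
          have := Subgroup.card_le_card_group C
          omega
        exact (IsZGroup.commutator_lt (G := G)).ne ‹_›
      simp [hm1, Nat.mod_one]
    have hprod : (∏ p ∈ n.primeFactors, p) ∣ n := Nat.prod_primeFactors_dvd n
    obtain ⟨p₀, hp₀⟩ : n.primeFactors.Nonempty := Nat.nonempty_primeFactors.mpr (by omega)
    -- an exponent `o` for which `r` has period dividing `n / p` for all `p`
    have hunit : IsUnit ((r : ZMod m)) := by
      refine IsUnit.of_pow_eq_one (n := n / p₀) ?_ ?_
      · have := (ZMod.natCast_eq_natCast_iff _ _ m).mpr (hprime p₀ hp₀)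
        rwa [Nat.cast_pow, Nat.cast_one] at this
      · exact (Nat.div_pos (Nat.le_of_dvd hn0 (Nat.dvd_of_mem_primeFactors hp₀))
          (Nat.pos_of_mem_primeFactors hp₀)).ne'
    set o := orderOf ((r : ZMod m)) with ho
    have hod : ∀ p ∈ n.primeFactors, o ∣ n / p := fun p hp => by
      refine orderOf_dvd_of_pow_eq_one ?_
      have := (ZMod.natCast_eq_natCast_iff _ _ m).mpr (hprime p hp)
      rwa [Nat.cast_pow, Nat.cast_one] at this
    have hon : o ∣ n := (hod p₀ hp₀).trans (Nat.div_dvd_of_dvd (Nat.dvd_of_mem_primeFactors hp₀))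
    have hdiv : (∏ p ∈ n.primeFactors, p) ∣ n / o := by
      refine Finset.prod_primes_dvd (n / o) (fun p hp => (Nat.prime_of_mem_primeFactors hp).prime) ?_
      intro p hp
      rw [Nat.dvd_div_iff_mul_dvd hon]
      have := hod p hp
      rw [Nat.dvd_div_iff_mul_dvd (Nat.dvd_of_mem_primeFactors hp)] at this
      rwa [mul_comm]
    have hfin : o ∣ n / ∏ p ∈ n.primeFactors, p := by
      rw [Nat.dvd_div_iff_mul_dvd hprod]
      rw [Nat.dvd_div_iff_mul_dvd hon] at hdiv
      rwa [mul_comm]
    have := orderOf_dvd_iff_pow_eq_one.mp hfin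
    rw [← Nat.cast_pow, ← Nat.cast_one, ZMod.natCast_eq_natCast_iff] at this
    exact this
  -- generation
  have hgen : Subgroup.closure ({x, y} : Set G) = ⊤ := by
    rw [eq_top_iff, ← hH.sup_eq_top, ← hx, show commutator G = Subgroup.zpowers y from hy.symm]
    refine sup_le (Subgroup.zpowers_le.mpr ?_) (Subgroup.zpowers_le.mpr ?_) <;>
      exact Subgroup.subset_closure (by simp)
  have hcop : Nat.Coprime (r - 1) m := by
    set d := Nat.gcd (r - 1) m with hd
    set D := Subgroup.zpowers (y ^ d) with hD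
    have hDn : D.Normal := by
      refine ⟨fun a ha g => ?_⟩
      obtain ⟨i, rfl⟩ := ha
      have hgC : g * y * g⁻¹ ∈ Subgroup.zpowers y := by
        rw [hy]; exact (inferInstance : C.Normal).conj_mem y (hy ▸ Subgroup.mem_zpowers y) g
      obtain ⟨e, he⟩ := hgC
      refine ⟨e * i, ?_⟩
      show (y ^ d) ^ (e * i) = g * (y ^ d) ^ i * g⁻¹
      rw [← conj_zpow, ← conj_pow, show g * y * g⁻¹ = y ^ e from he.symm, ← zpow_natCast (y ^ e),
        ← zpow_mul, ← zpow_mul, ← zpow_natCast y, ← zpow_mul]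
      congr 1
      ring
    have hq : ∀ a b : G, a * b * a⁻¹ * b⁻¹ ∈ D := by
      set q := QuotientGroup.mk' D with hqdef
      have hyD : q (y ^ (r - 1)) = 1 := by
        rw [hqdef, QuotientGroup.mk'_apply, QuotientGroup.eq_one_iff]
        obtain ⟨c, hc⟩ : d ∣ r - 1 := Nat.gcd_dvd_left _ _
        rw [hc, pow_mul]
        exact pow_mem (Subgroup.mem_zpowers _) c
      have hxy : Commute (q x) (q y) := by
        have : q (x⁻¹ * y * x) = q y := by
          rw [hr, show r = (r - 1) + 1 by omega, pow_succ, map_mul, hyD, one_mul]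
        rw [map_mul, map_mul, map_inv, mul_assoc, inv_mul_eq_iff_eq_mul] at this
        exact this.symm
      have hall : ∀ a b : G, Commute (q a) (q b) := by
        have h1 : ∀ b : G, Commute (q x) (q b) ∧ Commute (q y) (q b) := by
          intro b
          have hb : b ∈ Subgroup.closure ({x, y} : Set G) := hgen ▸ Subgroup.mem_top b
          induction hb using Subgroup.closure_induction with
          | mem z hz =>
            rcases hz with rfl | rfl
            exacts [⟨Commute.refl _, hxy.symm⟩, ⟨hxy, Commute.refl _⟩]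
          | one => rw [map_one]; exact ⟨Commute.one_right _, Commute.one_right _⟩
          | mul u v _ _ hu hv => rw [map_mul]; exact ⟨hu.1.mul_right hv.1, hu.2.mul_right hv.2⟩
          | inv u _ hu => rw [map_inv]; exact ⟨hu.1.inv_right, hu.2.inv_right⟩
        intro a b
        have ha : a ∈ Subgroup.closure ({x, y} : Set G) := hgen ▸ Subgroup.mem_top a
        induction ha using Subgroup.closure_induction with
        | mem z hz =>
          rcases hz with rfl | rfl
          exacts [(h1 b).1, (h1 b).2]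
        | one => rw [map_one]; exact Commute.one_left _
        | mul u v _ _ hu hv => rw [map_mul]; exact hu.mul_left hv
        | inv u _ hu => rw [map_inv]; exact hu.inv_left
      intro a b
      rw [← QuotientGroup.eq_one_iff]
      show q (a * b * a⁻¹ * b⁻¹) = 1
      rw [map_mul, map_mul, map_mul, map_inv, map_inv, (hall a b).eq, mul_inv_cancel_right, mul_inv_cancel]
    have hyd : y ∈ D := by
      have hle : C ≤ D := by
        rw [hC, commutator_def, Subgroup.commutator_le]
        exact fun a _ b _ => hq a b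
      exact hle (hy ▸ Subgroup.mem_zpowers y)
    show d = 1
    have hdm : d ∣ m := Nat.gcd_dvd_right _ _
    obtain ⟨i, hi⟩ := hyd
    have : (y ^ d) ^ (i : ℤ) = y ^ (1 : ℤ) := by rw [zpow_one]; exact hi
    rw [← zpow_natCast y d, ← zpow_mul, zpow_eq_zpow_iff_modEq, ← hm] at this
    have h2 : (d : ℤ) * i ≡ 1 [ZMOD (d : ℤ)] := this.of_dvd (Int.natCast_dvd_natCast.mpr hdm)
    have h3 := (Int.modEq_iff_dvd.mp h2)
    have h4 : (d : ℤ) ∣ 1 := by
      have := dvd_add h3 (dvd_mul_right (d : ℤ) i)
      simpa using this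
    exact Nat.eq_one_of_dvd_one (by exact_mod_cast h4)
  refine ⟨n, m, r, hn0, hm0, hcop, hmn, hr1, hexp, ?_⟩
  have hrels : ∀ w ∈ metaRels n m r, FreeGroup.lift ![x, y] w = 1 := by
    rintro w (rfl | rfl | rfl)
    · simp [hn, pow_orderOf_eq_one]
    · simp [hm, pow_orderOf_eq_one]
    · simp [hr]
  let φ := PresentedGroup.toGroup hrels
  have hsurj : Function.Surjective φ := by
    rw [← MonoidHom.range_eq_top, eq_top_iff, ← hgen, Subgroup.closure_le]
    rintro z (rfl | rfl)
    · exact ⟨PresentedGroup.of 0, by simp [φ, PresentedGroup.toGroup.of]⟩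
    · exact ⟨PresentedGroup.of 1, by simp [φ, PresentedGroup.toGroup.of]⟩
  let nf : Fin n × Fin m → PresentedGroup (metaRels n m r) := fun p =>
    PresentedGroup.of 0 ^ (p.1 : ℕ) * PresentedGroup.of 1 ^ (p.2 : ℕ)
  have hnf : Function.Surjective nf := fun g =>
    let ⟨i, j, h⟩ := exists_normal_form hn0 hm0 g; ⟨(i, j), h.symm⟩
  have : Finite (PresentedGroup (metaRels n m r)) := Finite.of_surjective nf hnf
  have hle : Nat.card (PresentedGroup (metaRels n m r)) ≤ Nat.card G := by
    refine (Nat.card_le_card_of_surjective nf hnf).trans (le_of_eq ?_)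
    rw [Nat.card_prod, Nat.card_fin, Nat.card_fin, ← hH.card_mul_card, hCm, hHn, mul_comm]
  exact ⟨(MulEquiv.ofBijective φ
    ((Nat.bijective_iff_surjective_and_card φ).mpr ⟨hsurj, le_antisymm hle (Nat.card_le_card_of_surjective φ hsurj)⟩)).symm⟩

end Cfsg.Agent.H21
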